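import Cfsg.Agent.H30.OZ.Tools
import Cfsg.Agent.H270.NS.Tits
import Cfsg.Agent.H235.TitsRow
import Cfsg.Agent.H631.TitsD.Data
import Cfsg.Agent.Blocks.Blau
import Cfsg.Agent.H733.OZ.Good
import Cfsg.Agent.H730.OZ.Asm

/-!
# The row of the Tits group for S4842 (helper30)

The degree is `± 1` modulo 13; `2^11`, `27`, `25` do not divide it.  It is 12, or divisible by 5, by 9 or by 64: then the
values at the elements of order 5, of order 3 and at the 2-central involutions are too large.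
-/

set_option autoImplicit false

universe u v

namespace Cfsg.Agent.H30.OZ.TitsRow

open Cfsg Cfsg.Agent.H732.VZ

section cent

open Subgroup Cfsg.Agent.TitsK Cfsg.Agent.H235.TitsRow

variable {G : Type u} [Group G] (D : TData G)

theorem card_CZ [Finite G] (hc : Nat.card ↥D.T = 17971200)
    (hz : ∀ R : Subgroup G, R ≤ D.H → (∀ g ∈ R, g * D.z * g⁻¹ = D.z) → ∃ n, Nat.card ↥R ∣ 2 ^ n * 5) :
    2 ^ 11 ∣ Nat.card (CZ D) ∧ Nat.card (CZ D) ≤ 10240 := by
  have f2 : Fact (Nat.Prime 2) := ⟨Nat.prime_two⟩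
  have hle : (D.syl : Subgroup ↥D.T) ≤ CZ D := by
    intro s hs
    rw [mem_CZ]
    have h1 := D.z_central s ((D.mem_S).1 ((D.mem_syl).1 hs)).1
    rw [mul_inv_eq_iff_eq_mul] at h1
    exact h1
  have hcs : Nat.card (D.syl : Subgroup ↥D.T) = 2 ^ 11 := by
    rw [D.syl.card_eq_multiplicity, hc]
    have : (17971200 : ℕ) = 2 ^ 11 * 8775 := by norm_num
    rw [this, Nat.factorization_mul (by norm_num) (by norm_num), Nat.factorization_pow, Finsupp.add_apply,
      Finsupp.smul_apply, Nat.Prime.factorization_self Nat.prime_two,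
      Nat.factorization_eq_zero_of_not_dvd (by norm_num : ¬ 2 ∣ 8775)]
    norm_num
  have h11 : 2 ^ 11 ∣ Nat.card (CZ D) := by
    rw [← hcs]
    exact Subgroup.card_dvd_of_le hle
  refine ⟨h11, ?_⟩
  obtain ⟨n, hn⟩ := hz ((CZ D).map D.T.subtype) ((map_subtype_le _).trans D.T_le) (by
    rintro _ ⟨g, hg, rfl⟩
    exact mul_inv_eq_iff_eq_mul.2 ((mem_CZ D).1 hg))
  rw [card_map_of_injective D.T.subtype_injective] at hn
  obtain ⟨m, hm⟩ := h11
  have hmul := (CZ D).card_mul_index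
  rw [hc, hm] at hmul
  have hmi : m * (CZ D).index = 8775 := by
    have : 2 ^ 11 * (m * (CZ D).index) = 2 ^ 11 * 8775 := by rw [← mul_assoc, hmul]; norm_num
    exact Nat.eq_of_mul_eq_mul_left (by norm_num) this
  have hm2 : ¬ 2 ∣ m := fun h => by
    have h1 := h.mul_right (CZ D).index
    rw [hmi] at h1
    norm_num at h1
  have hcop : Nat.Coprime m (2 ^ n) := Nat.Coprime.pow_right _ ((Nat.Prime.coprime_iff_not_dvd Nat.prime_two).2 hm2).symm
  have h5 : m ∣ 5 := hcop.dvd_of_dvd_mul_left ((Dvd.intro_left _ rfl : m ∣ 2 ^ 11 * m).trans (hm ▸ hn))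
  have h6 := Nat.le_of_dvd (by norm_num) h5
  rw [hm]
  omega

theorem arith {c i : ℕ} (h : c * i = 17971200) (hi : i ≤ 1755) : 10240 ≤ c := by
  by_contra hlt
  have h1 : c * i ≤ 10239 * 1755 := Nat.mul_le_mul (by omega) hi
  omega

theorem exists_z_abs [Finite G] (hc : Nat.card ↥D.T = 17971200)
    (hz : ∀ R : Subgroup G, R ≤ D.H → (∀ g ∈ R, g * D.z * g⁻¹ = D.z) → ∃ n, Nat.card ↥R ∣ 2 ^ n * 5)
    (h3 : ∀ g ∈ D.H, g ^ 3 = 1 → g * D.z * g⁻¹ = D.z → g = 1) :
    ∃ z : ↥D.T, orderOf z = 2 ∧ cent z = 10240 := by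
  refine ⟨⟨D.z, z_mem_T D⟩, ?_, le_antisymm (card_CZ D hc hz).2 ?_⟩
  · have f2 : Fact (Nat.Prime 2) := ⟨Nat.prime_two⟩
    refine orderOf_eq_prime ?_ fun h => D.z_ne (congrArg Subtype.val h)
    rw [pow_two]
    exact Subtype.ext D.z_sq
  · have h1 := index_CZ D hc h3
    have h2 := (CZ D).card_mul_index
    rw [hc] at h2
    exact arith h2 h1

theorem exists_z_TT : ∃ z : ↥TT, orderOf z = 2 ∧ cent z = 10240 := by
  have hfin : Finite Cfsg.Agent.FourTwo.Base.LL := Cfsg.Agent.FourTwo.Perf.instFiniteLL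
  have hfin' : Finite ↥TT := inferInstance
  have hF : Cfsg.Agent.H235.TitsIdx.Facts ↥TT := by
    obtain ⟨e⟩ := TitsK.exists_equiv
    exact facts (X := ↥TT) ⟨e.symm⟩
  exact exists_z_abs tdata hF.card (fun _ hR hz => H270.NS.Tits.card_z hR hz) fun g hg h1 h2 => TitsK.three_z hg h1 h2

end cent

theorem cent_equiv {X : Type u} {Y : Type v} [Group X] [Group Y] (e : X ≃* Y) (x : X) : cent (e x) = cent x := by
  refine Nat.card_congr (Equiv.subtypeEquiv e.symm.toEquiv fun g => ?_)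
  rw [Subgroup.mem_centralizer_singleton_iff, Subgroup.mem_centralizer_singleton_iff]
  show g * e x = e x * g ↔ e.symm g * x = x * e.symm g
  rw [← e.injective.eq_iff (a := e.symm g * x), map_mul, map_mul, e.apply_symm_apply]

/-- an involution with centralizer of order 10240 -/
def HasZ (X : Type u) [Group X] : Prop := ∃ z : X, orderOf z = 2 ∧ cent z = 10240

theorem HasZ.congr {X : Type u} {Y : Type v} [Group X] [Group Y] (h : HasZ Y) (e : X ≃* Y) : HasZ X := by
  obtain ⟨z, h1, h2⟩ := h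
  exact ⟨e.symm z, by rw [e.symm.orderOf_eq, h1], (cent_equiv e.symm z).trans h2⟩

theorem hasZ_TT : HasZ ↥Cfsg.Agent.TitsK.TT := exists_z_TT

theorem exists_z {S : Type u} [Group S] (h : Cfsg.Lie.IsoTits S) : HasZ S := by
  obtain ⟨e⟩ := CpAutTits.Row.exists_equiv h
  have h1 := hasZ_TT
  exact h1.congr e

/-! ### Degrees -/

/-- the check of a degree -/
def P (d : ℕ) : Bool :=
  !(d % 13 == 1 || d % 13 == 12) || (d == 1 || (d == 12 || (d % 5 == 0 || (d % 9 == 0 || d % 64 == 0))))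

theorem list : ∀ a : Fin 11, ∀ b : Fin 3, ∀ c : Fin 2, P (2 ^ (a : ℕ) * (3 ^ (b : ℕ) * 5 ^ (c : ℕ))) = true := by
  decide +kernel

theorem P_spec {d : ℕ} (h : P d = true) (h13 : d % 13 = 1 ∨ d % 13 = 12) :
    d = 1 ∨ d = 12 ∨ 5 ∣ d ∨ 9 ∣ d ∨ 64 ∣ d := by
  unfold P at h
  simp only [Bool.or_eq_true, Bool.not_eq_true', Bool.or_eq_false_iff, beq_iff_eq,
    beq_eq_false_iff_ne, ne_eq] at h
  omega

theorem cases_of {d : ℕ} (h : d ∣ 17971200) (h2 : ¬ 2 ^ 11 ∣ d) (h3 : ¬ 3 ^ 3 ∣ d) (h5 : ¬ 5 ^ 2 ∣ d)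
    (h13 : d % 13 = 1 ∨ d % 13 = 12) : d = 1 ∨ d = 12 ∨ 5 ∣ d ∨ 9 ∣ d ∨ 64 ∣ d := by
  have e1 : d ∣ 2 ^ 10 * (3 ^ 3 * 5 ^ 2 * 13) := dvd_of_not Nat.prime_two (by
    rwa [show 2 ^ (10 + 1) * (3 ^ 3 * 5 ^ 2 * 13) = 17971200 by norm_num]) h2
  have e2 : d ∣ 3 ^ 2 * (2 ^ 10 * 5 ^ 2 * 13) := dvd_of_not Nat.prime_three (by
    rwa [show 3 ^ (2 + 1) * (2 ^ 10 * 5 ^ 2 * 13) = 2 ^ 10 * (3 ^ 3 * 5 ^ 2 * 13) by norm_num]) h3
  have e3 : d ∣ 5 ^ 1 * (2 ^ 10 * 3 ^ 2 * 13) := dvd_of_not Nat.prime_five (by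
    rwa [show 5 ^ (1 + 1) * (2 ^ 10 * 3 ^ 2 * 13) = 3 ^ 2 * (2 ^ 10 * 5 ^ 2 * 13) by norm_num]) h5
  have e5 : d ∣ 13 ^ 0 * (2 ^ 10 * (3 ^ 2 * 5 ^ 1)) := dvd_of_not (by norm_num) (by
    rwa [show 13 ^ (0 + 1) * (2 ^ 10 * (3 ^ 2 * 5 ^ 1)) = 5 ^ 1 * (2 ^ 10 * 3 ^ 2 * 13) by norm_num])
      (by omega)
  rw [pow_zero, one_mul] at e5
  obtain ⟨p1, q1, hp1, hq1, r1⟩ := (Nat.dvd_mul).1 e5
  obtain ⟨a, ha, ra⟩ := (Nat.dvd_prime_pow Nat.prime_two).1 hp1
  obtain ⟨p2, q2, hp2, hq2, r2⟩ := (Nat.dvd_mul).1 hq1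
  obtain ⟨b, hb, rb⟩ := (Nat.dvd_prime_pow Nat.prime_three).1 hp2
  obtain ⟨c, hc, rc⟩ := (Nat.dvd_prime_pow Nat.prime_five).1 hq2
  have hl := list ⟨a, by omega⟩ ⟨b, by omega⟩ ⟨c, by omega⟩
  have hd : d = 2 ^ a * (3 ^ b * 5 ^ c) := by rw [← r1, ← r2, ra, rb, rc]
  rw [hd] at h13 ⊢
  exact P_spec hl h13

section

variable {S : Type u} [Group S] [Fintype S] {χ : IrrCharacter S} {x : S}

theorem hford : ∀ g g' : S, IsConj g g' → orderOf g = orderOf g' := fun _ _ h =>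
  H604.OZ.orderOf_eq_of_conj h

/-- **The character of degree 12.** The value at the elements of order 5 is congruent to 12 modulo 25. -/
theorem twelve (hc : Nat.card S = 17971200) (one : ∀ x y : S, orderOf x = 5 → orderOf y = 5 → IsConj x y)
    (exp : ∀ y : S, y ^ 25 = 1 → y ^ 5 = 1) {y : S} (hy : orderOf y = 5) (hcy : cent y = 50)
    (hr : ∀ k : ℕ, k.Coprime (orderOf y) → IsConj y (y ^ k)) (h : One χ x) (h4 : 4 ≤ cent x)
    (hd : charDegree (χ : S → ℂ) = 12) : False := by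
  classical
  have f5 : Fact (Nat.Prime 5) := ⟨Nat.prime_five⟩
  obtain ⟨a, ha⟩ := exists_int_val (y := y) (fun k hk => hr k (Nat.Coprime.coprime_dvd_right (orderOf_dvd_natCard y) hk)) χ
  obtain ⟨P⟩ : Nonempty (Sylow 5 S) := inferInstance
  have hP : Nat.card (P : Subgroup S) = 25 := by
    rw [P.card_eq_multiplicity, hc]
    have : (17971200 : ℕ) = 5 ^ 2 * 718848 := by norm_num
    rw [this, Nat.factorization_mul (by norm_num) (by norm_num), Nat.factorization_pow, Finsupp.add_apply,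
      Finsupp.smul_apply, Nat.Prime.factorization_self Nat.prime_five,
      Nat.factorization_eq_zero_of_not_dvd (by norm_num : ¬ 5 ∣ 718848)]
    norm_num
  obtain ⟨m, hm⟩ := Blocks.Blau.exists_sum_subgroup_eq (P : Subgroup S)
    (Cfsg.Agent.Characters.Core.isIrr_isCharacter χ.2)
  have hval : ∀ g ∈ (Finset.univ : Finset ↥(P : Subgroup S)).erase 1, (χ : S → ℂ) (g : S) = a := by
    intro g hg
    have hg1 : (g : S) ≠ 1 := fun h => (Finset.mem_erase.1 hg).1 (Subtype.ext h)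
    have h25 : (g : S) ^ 25 = 1 := by
      have h1 : g ^ Nat.card (P : Subgroup S) = 1 := pow_card_eq_one'
      rw [hP] at h1
      simpa using congrArg (fun g : ↥(P : Subgroup S) => (g : S)) h1
    have ho : orderOf (g : S) = 5 := orderOf_eq_prime (exp _ h25) hg1
    rw [apply_conj (one y g hy ho), ha]
  rw [← Finset.add_sum_erase _ _ (Finset.mem_univ (1 : ↥(P : Subgroup S))), Finset.sum_congr rfl hval,
    Finset.sum_const, Finset.card_erase_of_mem (Finset.mem_univ _), Finset.card_univ, ← Nat.card_eq_fintype_card,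
    hP, Subgroup.coe_one, ← H686.CharKit.charDegree_irr χ, hd] at hm
  have hm' : (12 : ℤ) + 24 * a = 25 * m := by
    have h1 : ((12 : ℤ) + 24 * a : ℂ) = (25 * m : ℂ) := by
      have h2 := hm
      simp only [nsmul_eq_mul] at h2
      push_cast at h2 ⊢
      exact h2
    exact_mod_cast h1
  have ha12 : 12 ≤ a.natAbs := by omega
  have ha0 : (χ : S → ℂ) y ≠ 0 := by
    rw [ha]
    intro h0
    have : a = 0 := by exact_mod_cast h0
    omega
  have hxy : ¬ IsConj x y := fun hxy => ha0 (by rw [apply_conj hxy]; exact h.zero)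
  have h1 := exF_rat (f := orderOf) hford hr hxy h (n := a.natAbs) (by omega) (by
    rw [ha]
    have hn : ((a.natAbs : ℕ) : ℂ) ≠ 0 := by
      have : a.natAbs ≠ 0 := by omega
      exact_mod_cast this
    rcases Int.natAbs_eq a with h2 | h2
    · have h3 : (a : ℂ) = ((a.natAbs : ℕ) : ℂ) := by rw [← Int.cast_natCast]; exact congrArg _ h2
      rw [h3, div_self hn]
      exact isIntegral_one
    · have h3 : (a : ℂ) = -((a.natAbs : ℕ) : ℂ) := by
        rw [← Int.cast_natCast, ← Int.cast_neg]; exact congrArg _ h2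
      rw [h3, neg_div, div_self hn]
      exact isIntegral_one.neg) hcy.le
  have h12 : (12 : ℝ) ≤ (a.natAbs : ℝ) := by exact_mod_cast ha12
  refine h1.false h h4 ?_ ?_
  · apply div_nonneg _ (by norm_num)
    nlinarith
  · have h3 : (143 : ℝ) / (50 : ℕ) ≤ ((a.natAbs : ℝ) ^ 2 - 1) / (50 : ℕ) := by
      apply div_le_div_of_nonneg_right _ (by norm_num)
      nlinarith
    have h4' : (1 : ℝ) < 4 * (143 / (50 : ℕ)) := by norm_num
    push_cast at h3 h4' ⊢
    linarith

theorem no_one (hT : Cfsg.Lie.IsoTits S) (h : One χ x) : False := by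
  classical
  have T := Cfsg.Agent.H631.TitsD.td_of hT
  have F := Cfsg.Agent.H235.TitsRow.facts hT
  have hs : IsSimpleGroup S := Cfsg.Agent.H180.ElS.simple_tits hT
  have hc := T.card
  have f2 : Fact (Nat.Prime 2) := ⟨Nat.prime_two⟩
  have f5 : Fact (Nat.Prime 5) := ⟨Nat.prime_five⟩
  have f13 : Fact (Nat.Prime 13) := ⟨by norm_num⟩
  -- elements
  obtain ⟨z, oz, cz⟩ := exists_z hT
  obtain ⟨g16, o16⟩ := T.els.o16
  obtain ⟨g12, o12⟩ := T.els.o12
  obtain ⟨y5, o5⟩ := exists_prime_orderOf_dvd_card' (G := S) 5 (by rw [hc]; norm_num)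
  obtain ⟨y13, o13⟩ := exists_prime_orderOf_dvd_card' (G := S) 13 (by rw [hc]; norm_num)
  have o3 : orderOf (g12 ^ 4) = 3 := by rw [orderOf_pow, o12]; norm_num
  obtain ⟨y10, o10⟩ : ∃ y10 : S, orderOf y10 = 10 := by
    obtain ⟨i, hi⟩ := exists_prime_orderOf_dvd_card' (G := Subgroup.centralizer ({y5} : Set S)) 2
      (by rw [T.c5 y5 o5]; norm_num)
    have h1 : Commute (i : S) y5 := Subgroup.mem_centralizer_singleton_iff.1 i.2
    refine ⟨(i : S) * y5, ?_⟩
    rw [h1.orderOf_mul_eq_mul_orderOf_of_coprime (by rw [Subgroup.orderOf_coe, hi, o5]; norm_num),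
      Subgroup.orderOf_coe, hi, o5]
  have rat5 : ∀ k : ℕ, k.Coprime (orderOf y5) → IsConj y5 (y5 ^ k) := fun k hk =>
    F.one _ _ o5 (by rw [hk.symm.orderOf_pow, o5])
  have rat3 : ∀ k : ℕ, k.Coprime (orderOf (g12 ^ 4)) → IsConj (g12 ^ 4) ((g12 ^ 4) ^ k) := fun k hk =>
    T.conj3 _ _ o3 (by rw [hk.symm.orderOf_pow, o3])
  have rat2 : ∀ k : ℕ, k.Coprime (orderOf z) → IsConj z (z ^ k) := by
    intro k hk
    rw [oz] at hk
    have h2 : ¬ 2 ∣ k := fun h => by
      have h4 := Nat.dvd_gcd h (dvd_refl 2)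
      rw [hk] at h4
      norm_num at h4
    rw [← pow_mod_orderOf, oz, show k % 2 = 1 by omega, pow_one]
  have h4 : 4 ≤ cent x := H604.OZ.four_le_cent h (by rw [hc]; norm_num) (by rw [hc]; norm_num)
  have hmod := mod_of_iso (p := 13) (by norm_num) (by norm_num) (by rw [hc]; norm_num) (by rw [hc]; norm_num)
    o13 (T.c13 y13 o13) (n := 1382400) (by rw [hc]) (by norm_num) h h4
  have hdvd := H604.OZ.deg_dvd χ
  rw [hc] at hdvd
  have n2 := H604.OZ.not_dvd_deg' h (r := 2) (n := 11) (by norm_num) (by rw [hc]; norm_num) (by rw [hc]; norm_num)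
    (g := z) (g' := g16) (by rw [oz]) (by rw [o16]; norm_num) (by rw [oz, o16]; norm_num)
  have n3 := H604.OZ.not_dvd_deg' h (r := 3) (n := 3) (by norm_num) (by rw [hc]; norm_num) (by rw [hc]; norm_num)
    (g := g12 ^ 4) (g' := g12) (by rw [o3]) (by rw [o12]; norm_num) (by rw [o3, o12]; norm_num)
  have n5 := H604.OZ.not_dvd_deg' h (r := 5) (n := 2) (by norm_num) (by rw [hc]; norm_num) (by rw [hc]; norm_num)
    (g := y5) (g' := y10) (by rw [o5]) (by rw [o10]; norm_num) (by rw [o5, o10]; norm_num)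
  have hne : ∀ y : S, cent x < cent y → ¬ IsConj x y := fun y hy hxy => by
    rw [cent_congr hxy] at hy
    exact lt_irrefl _ hy
  have c5 : cent y5 = 50 := T.c5 y5 o5
  have c3 : cent (g12 ^ 4) = 108 := T.c3 _ o3
  have idx : ∀ {y : S} {n m : ℕ}, cent y = n → n ≠ 0 → n * m = 17971200 →
      (Subgroup.centralizer ({y} : Set S)).index = m := by
    intro y n m h1 h0 h2
    have h3 := (Subgroup.centralizer ({y} : Set S)).card_mul_index
    rw [show Nat.card (Subgroup.centralizer ({y} : Set S)) = n from h1, hc, ← h2] at h3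
    exact Nat.eq_of_mul_eq_mul_left (Nat.pos_of_ne_zero h0) h3
  rcases cases_of hdvd n2 n3 n5 hmod with hd | hd | hd | hd | hd
  · have := H604.OZ.one_lt_deg h
    omega
  · exact twelve hc F.one F.exp o5 c5 rat5 h h4 hd
  · have h25 := H733.OZ.cent_le_of_dvd h Nat.prime_five (n := 2) (by norm_num) (by rw [hc]; norm_num)
      (by rw [hc]; norm_num) hd
    have hxy := hne y5 (by rw [c5]; exact lt_of_le_of_lt h25 (by norm_num))
    exact (exF_elt (f := orderOf) hford rat5 hxy h (r := 5) Nat.prime_five (k := 1)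
      (by rw [pow_one, ← o5, pow_orderOf_eq_one]) hd c5.le).false h h4 (by norm_num) (by norm_num)
  · have h27 := H733.OZ.cent_le_of_dvd h Nat.prime_three (n := 3) (by norm_num) (by rw [hc]; norm_num)
      (by rw [hc]; norm_num) (dvd_trans (by norm_num) hd)
    have hxy := hne (g12 ^ 4) (by rw [c3]; exact lt_of_le_of_lt h27 (by norm_num))
    have hint := isIntegral_div_pow (χ := χ) (y := g12 ^ 4) (a := 2) (b := 0) Nat.prime_three (by simpa using hd)
      (by rw [idx c3 (by norm_num) (m := 166400) (by norm_num)]; norm_num)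
    exact (exF_rat (f := orderOf) hford rat3 hxy h (n := 3 ^ 2) (by norm_num) hint c3.le).false h h4 (by norm_num)
      (by norm_num)
  · have h2048 := H733.OZ.cent_le_of_dvd h Nat.prime_two (n := 11) (by norm_num) (by rw [hc]; norm_num)
      (by rw [hc]; norm_num) (dvd_trans (by norm_num) hd)
    have hxy := hne z (by rw [cz]; exact lt_of_le_of_lt h2048 (by norm_num))
    have hint := isIntegral_div_pow (χ := χ) (y := z) (a := 6) (b := 0) Nat.prime_two (by simpa using hd)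
      (by rw [idx cz (by norm_num) (m := 1755) (by norm_num)]; norm_num)
    exact (exF_rat (f := orderOf) hford rat2 hxy h (n := 2 ^ 6) (by norm_num) hint cz.le).false h h4 (by norm_num)
      (by norm_num)

end

end Cfsg.Agent.H30.OZ.TitsRow

namespace Cfsg.Agent.H30.OZ

/-- **S4842, the Tits group.** -/
theorem row_tits {S : Type u} [Group S] [Finite S] (_hs : IsSimpleGroup S) (h : Cfsg.Lie.IsoTits S) :
    Cfsg.Agent.H730.OZ.Row S := by
  have := Fintype.ofFinite S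
  exact H604.OZ.row_of fun _ _ h1 => TitsRow.no_one h h1

end Cfsg.Agent.H30.OZ
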